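import Cfsg.Agent.H6.FewD

/-!
# The theorem of Brauer and Tuan on simple groups of order `p q^b g₀`, `g₀ < p - 1`
-/

set_option autoImplicit false

namespace Cfsg.Agent.H6

open Finset Subgroup Cfsg.Agent.L0 MulAction

theorem two_pow_mod {p ε : ℤ} {m : ℕ} (hε : ε = 1 ∨ ε = -1) (h : 2 ^ m = p + ε) (a : ℕ) :
    p ∣ 2 ^ (a % m) - 2 ^ a ∨ p ∣ 2 ^ (a % m) + 2 ^ a := by
  have h1 : p ∣ 2 ^ a - ε ^ (a / m) * 2 ^ (a % m) := by
    conv_rhs => rw [← Nat.div_add_mod a m, pow_add, pow_mul, Nat.div_add_mod, ← sub_mul]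
    exact ((show p ∣ 2 ^ m - ε from ⟨1, by linear_combination h⟩).trans
      (sub_dvd_pow_sub_pow _ _ _)).mul_right _
  have h2 : ε ^ (a / m) = 1 ∨ ε ^ (a / m) = -1 := by
    rcases hε with rfl | rfl
    · simp
    · exact neg_one_pow_eq_or _ _
  rcases h2 with h2 | h2 <;> rw [h2] at h1
  · exact Or.inl (by simpa using h1.neg_right)
  · exact Or.inr (by simpa [add_comm] using h1)

theorem two_mul_two_pow_mod_le {m : ℕ} (hm : m ≠ 0) (a : ℕ) : (2 : ℤ) * 2 ^ (a % m) ≤ 2 ^ m := by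
  rw [← pow_succ']
  exact pow_le_pow_right₀ (by norm_num) (Nat.mod_lt _ (Nat.pos_of_ne_zero hm))

theorem deg_form {p m f f0 b : ℕ} {ε δ : ℤ} (hε : ε = 1 ∨ ε = -1) (hδ : δ = 1 ∨ δ = -1)
    (hp : p.Prime) (hp3 : 3 < p) (hQ : (2 : ℤ) ^ m = p + ε) (hf0 : 2 * (f0 : ℤ) = p - ε)
    (hodd : ¬ 2 ∣ f0) (h1 : f ∣ 2 ^ b * f0) (h2 : 2 ∣ f) (h3 : (p : ℤ) ∣ δ * f - 1)
    (h4 : ¬ f ∣ 2 ^ b) : ∃ j, f = 2 * f0 * (2 ^ m) ^ j := by
  obtain ⟨u, g, hu, ⟨g', hg⟩, rfl⟩ := (Nat.dvd_mul).mp h1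
  obtain ⟨β, hβ, rfl⟩ := (Nat.dvd_prime_pow Nat.prime_two).mp hu
  have hm : m ≠ 0 := by rintro rfl; omega
  have h5 : ¬ 2 ∣ g := fun h => hodd (hg ▸ h.mul_right _)
  have h6 : ¬ 2 ∣ g' := fun h => hodd (hg ▸ h.mul_left _)
  obtain ⟨β, rfl⟩ := Nat.exists_eq_add_one_of_ne_zero (show β ≠ 0 by rintro rfl; omega)
  have h7 : g ≠ 1 := by rintro rfl; exact h4 (by rwa [mul_one])
  have h8 : g' < f0 := by
    rw [hg]
    exact lt_mul_of_one_lt_left (by omega) (by omega)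
  have hg' : (f0 : ℤ) = g * g' := by exact_mod_cast hg
  have h9 : (p : ℤ) ∣ g' + δ * ε * 2 ^ β := by
    refine (Nat.isCoprime_iff_coprime.mpr (show Nat.Coprime p 2 from
      (Nat.coprime_primes hp Nat.prime_two).mpr (by omega))).dvd_of_dvd_mul_left ?_
    obtain ⟨c, hc⟩ := h3
    push_cast at hc ⊢
    exact ⟨δ * 2 ^ (β + 1) - 2 * g' * c, by
      linear_combination δ * 2 ^ (β + 1) * hf0 - 2 * g' * hc - 2 * δ * 2 ^ (β + 1) * hg'⟩
  have h10 := two_mul_two_pow_mod_le hm β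
  have h11 : (0 : ℤ) < 2 ^ (β % m) := by positivity
  have h12 : (p : ℤ) ∣ g' - 2 ^ (β % m) ∨ (p : ℤ) ∣ g' + 2 ^ (β % m) := by
    have h12 : δ * ε = 1 ∨ δ * ε = -1 := by
      rcases hε with rfl | rfl <;> rcases hδ with rfl | rfl <;> simp
    rcases h12 with h12 | h12 <;> rw [h12] at h9 <;> rcases two_pow_mod hε hQ β with h | h
    · exact Or.inr ((dvd_add h9 h).trans (dvd_of_eq (by ring)))
    · exact Or.inl ((dvd_sub h9 h).trans (dvd_of_eq (by ring)))
    · exact Or.inl ((dvd_sub h9 h).trans (dvd_of_eq (by ring)))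
    · exact Or.inr ((dvd_add h9 h).trans (dvd_of_eq (by ring)))
  rcases h12 with h12 | h12
  · have h13 : (g' : ℤ) = 2 ^ (β % m) := sub_eq_zero.mp (Int.eq_zero_of_abs_lt_dvd h12
      (abs_lt.mpr ⟨by omega, by omega⟩))
    have h14 : β % m = 0 := by
      by_contra h
      exact h6 (Int.natCast_dvd_natCast.mp (h13 ▸ dvd_pow_self 2 h))
    rw [h14, pow_zero] at h13
    obtain ⟨j, rfl⟩ := Nat.dvd_of_mod_eq_zero h14
    obtain rfl : g' = 1 := by exact_mod_cast h13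
    exact ⟨j, by rw [hg, pow_succ, pow_mul]; ring⟩
  · have := Int.le_of_dvd (by omega) h12
    omega

variable {p : ℕ} {G : Type*} [Group G] [hp : Fact p.Prime] [Finite G]

namespace Brauer

variable {D : Setup p G} (B : Brauer D)

theorem not_dvd_deg_S {χ : IrrCharacter G} (h : χ ∈ B.S) : ¬ p ∣ deg χ := fun h1 =>
  hp.out.not_dvd_one (Int.natCast_dvd_natCast.mp ((dvd_iff_dvd_of_dvd_sub (B.dvd_deg_sub h)).mp
    ((Int.natCast_dvd_natCast.mpr h1).mul_left _)))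

theorem not_dvd_f0 : ¬ p ∣ B.f0 := fun h1 =>
  D.not_dvd_card_A (Int.natCast_dvd_natCast.mp ((dvd_add_right
    ((Int.natCast_dvd_natCast.mpr h1).mul_left _)).mp B.dvd_f0_add))

theorem deg_sq_le (χ : IrrCharacter G) : deg χ ^ 2 ≤ Nat.card G := sum_deg_sq (G := G) ▸
  single_le_sum (f := fun χ => deg χ ^ 2) (fun _ _ => Nat.zero_le _) (mem_univ χ)

theorem half_case [IsSimpleGroup G] (hG : ¬ IsMulCommutative G) (hK : D.K = ⊥) {m b : ℕ} {ε : ℤ}
    (hε : ε = 1 ∨ ε = -1) (hp3 : 3 < p) (hQ : (2 : ℤ) ^ m = p + ε)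
    (hf0 : 2 * (B.f0 : ℤ) = p - ε) (hodd : ¬ 2 ∣ B.f0) (he : 2 * Nat.card D.A + 1 = p)
    (hg : Nat.card G = p * (2 ^ b * B.f0)) (hev : ∀ χ ∈ B.S, χ ≠ irrOne G → 2 ∣ deg χ) :
    Nat.card (Sylow p G) = p + 1 := by
  classical
  obtain ⟨n, hn⟩ := Setup.exists_card_sylow (p := p) (G := G)
  have hn0 : n ≠ 0 := fun h => D.card_sylow_ne_one (perfect_of_simple hG) hK
    (by rw [hn, h, zero_mul])
  have hm : m ≠ 0 := by rintro rfl; omega
  have h1 : (2 : ℤ) ^ b * (p - ε) = (n * p + 1) * (p - 1) := by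
    have h1 := D.card_G
    rw [hn, hK, card_bot, mul_one, ← mul_assoc, hg, mul_comm] at h1
    have h2 : (2 : ℤ) ^ b * B.f0 = (n * p + 1) * Nat.card D.A := by
      exact_mod_cast Nat.eq_of_mul_eq_mul_right hp.out.pos h1
    have h3 : (2 : ℤ) * Nat.card D.A + 1 = p := by exact_mod_cast he
    linear_combination 2 * h2 - 2 ^ b * hf0 + (n * p + 1) * h3
  obtain ⟨k, rfl⟩ : m ∣ b := by
    have h2 : (p : ℤ) ∣ 2 ^ b - ε := by
      have : ε * ε = 1 := by rcases hε with rfl | rfl <;> simp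
      exact ⟨ε * (2 ^ b - n * (p - 1) - 1), by linear_combination -ε * h1 - 2 ^ b * this⟩
    have h3 := two_mul_two_pow_mod_le hm b
    have h4 : (0 : ℤ) < 2 ^ (b % m) := by positivity
    have h5 : (p : ℤ) ∣ 2 ^ (b % m) - ε ∨ (p : ℤ) ∣ 2 ^ (b % m) + ε := by
      rcases two_pow_mod hε hQ b with h | h
      · exact Or.inl ((dvd_add h h2).trans (dvd_of_eq (by ring)))
      · exact Or.inr ((dvd_sub h h2).trans (dvd_of_eq (by ring)))
    have h6 : (2 : ℤ) ^ (b % m) = 2 ^ 0 := by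
      rcases h5 with h | h <;>
      · have := Int.eq_zero_of_abs_lt_dvd h (abs_lt.mpr ⟨by omega, by omega⟩)
        omega
    exact Nat.dvd_of_mod_eq_zero (pow_right_injective₀ (by norm_num) (by norm_num) h6)
  let T := (B.S.filter (· ∈ prinBlk 2 G)).erase (irrOne G)
  have hT : ∀ χ ∈ T, χ ∈ B.S := fun χ h => (mem_filter.mp (mem_of_mem_erase h)).1
  have h2 : ∀ χ : IrrCharacter G, ∃ j, χ ∈ T → deg χ = 2 * B.f0 * (2 ^ m) ^ j := fun χ => by
    by_cases h : χ ∈ T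
    · obtain ⟨j, hj⟩ := deg_form hε (B.hδ χ (hT χ h)) hp.out hp3 hQ hf0 hodd
        (((Nat.Prime.coprime_iff_not_dvd hp.out).mpr (B.not_dvd_deg_S (hT χ h))).symm
          |>.dvd_of_dvd_mul_left (hg ▸ deg_dvd χ)) (hev χ (hT χ h) (ne_of_mem_erase h))
        (B.dvd_deg_sub (hT χ h)) fun h2 => not_mem_prinBlk_of_dvd_pow hG Nat.prime_two
          (ne_of_mem_erase h) h2 (mem_filter.mp (mem_of_mem_erase h)).2
      exact ⟨j, fun _ => hj⟩
    · exact ⟨0, fun h' => absurd h' h⟩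
  choose j hj using h2
  have h3 := D.brauer_tuan (a := m * k) Nat.prime_two (by omega) (by rw [hK, card_bot]; omega)
    (hg ▸ (dvd_mul_right _ _).mul_left _) (1 : (ZMod p)ˣ)
  rw [B.sum_filter_d, dvd_neg, ← add_sum_erase _ _ (mem_filter.mpr
    ⟨B.one_mem, irrOne_mem_prinBlk Nat.prime_two⟩), B.δ_one, deg_irrOne] at h3
  change _ ∣ _ + ∑ χ ∈ T, B.δ χ * deg χ + _ at h3
  have hf2 := two_le_deg (perfect_of_simple hG) (B.c_ne_one 1)
  rw [B.deg_c] at hf2
  generalize hc : (if B.c (1 : (ZMod p)ˣ) ∈ prinBlk 2 G then B.δ0 * B.f0 else 0) = c at h3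
  have h4 : |c| ≤ B.f0 ∧ (B.f0 : ℤ) ∣ c := by
    rw [← hc]
    split_ifs
    · exact ⟨by rcases B.hδ0 with h | h <;> simp [h], dvd_mul_left _ _⟩
    · simp
  have h5 : (B.f0 : ℤ) ∣ ∑ χ ∈ T, B.δ χ * deg χ := dvd_sum fun χ hχ => by
    rw [hj χ hχ]
    push_cast
    exact (((dvd_mul_left _ _).mul_right _).mul_left _)
  have h6 := Int.le_abs_of_dvd (fun h => by
    have := (dvd_add_left (h5.add h4.2)).mp (show _ ∣ 1 + _ by
      rw [← add_assoc]; convert dvd_zero (B.f0 : ℤ) using 1; simpa using h)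
    have := Int.le_of_dvd one_pos this
    omega) h3
  have h7 : |∑ χ ∈ T, B.δ χ * deg χ| ≤ (Nat.card D.A - 1) * (2 * B.f0 * (2 ^ m) ^ T.sup j) := by
    refine (abs_sum_le_sum_abs _ _).trans ((sum_le_card_nsmul _ _
      (2 * B.f0 * (2 ^ m) ^ T.sup j : ℤ) fun χ hχ => ?_).trans ?_)
    · have : |B.δ χ * deg χ| = deg χ := by rcases B.hδ χ (hT χ hχ) with h | h <;> simp [h]
      rw [this, hj χ hχ]
      push_cast
      gcongr
      · exact one_le_pow₀ (by norm_num)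
      · exact le_sup hχ
    · rw [nsmul_eq_mul]
      gcongr
      have := card_le_card (erase_subset_erase (irrOne G) (filter_subset (· ∈ prinBlk 2 G) B.S))
      have h7 := card_erase_add_one B.one_mem
      rw [B.card_S] at h7
      change T.card ≤ _ at this
      omega
  have h8 : (1 : ℤ) ≤ (2 ^ m) ^ T.sup j := one_le_pow₀ (one_le_pow₀ (by norm_num))
  have h9 : k ≤ T.sup j + 1 := by
    have h9 := h6.trans ((abs_add_le _ _).trans (add_le_add ((abs_add_le _ _).trans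
      (add_le_add le_rfl h7)) h4.1))
    have h10 : ((2 : ℤ) ^ m) ^ k < (2 ^ m) ^ (T.sup j + 2) := by
      push_cast at h9
      rw [pow_mul] at h9
      rw [pow_add]
      have h10 : (2 : ℤ) * Nat.card D.A + 1 = p := by exact_mod_cast he
      have h11 : (Nat.card D.A : ℤ) * (2 * B.f0) < (2 ^ m) ^ 2 := by
        rw [hQ, hf0]
        rcases hε with rfl | rfl <;> nlinarith
      simp only [abs_one] at h9
      nlinarith
    have := (pow_lt_pow_iff_right₀ (one_lt_pow₀ (by norm_num) hm)).mp h10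
    omega
  have h10 : T.sup j = 0 := by
    by_contra h10
    obtain ⟨χ, hχ, h11⟩ := exists_mem_eq_sup T (nonempty_of_ne_empty fun h => h10 (by
      rw [h, sup_empty]; rfl)) j
    have h12 := deg_sq_le χ
    rw [hj χ hχ, hg, ← h11, pow_mul] at h12
    obtain ⟨J, hJ⟩ := Nat.exists_eq_succ_of_ne_zero h10
    rw [hJ] at h12 h9
    have h13 := Nat.pow_le_pow_right (show 0 < 2 ^ m by positivity) (show k ≤ 2 * (J + 1) by omega)
    have h14 : B.f0 * (2 ^ m) ^ (2 * (J + 1)) * (4 * B.f0) ≤ B.f0 * (2 ^ m) ^ (2 * (J + 1)) * p := by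
      calc _ = (2 * B.f0 * (2 ^ m) ^ (J + 1)) ^ 2 := by ring
        _ ≤ p * ((2 ^ m) ^ (2 * (J + 1)) * B.f0) := h12.trans (by gcongr)
        _ = _ := by ring
    have := Nat.le_of_mul_le_mul_left h14 (by positivity)
    omega
  have h11 : (2 : ℤ) ^ (m * k) ≤ p + ε := by
    rw [← hQ]
    exact pow_le_pow_right₀ (by norm_num) (by nlinarith)
  have h12 : n = 1 := by
    by_contra h12
    have h13 : (2 : ℤ) ≤ n := by omega
    have h14 := mul_le_mul_of_nonneg_right h11 (show (0 : ℤ) ≤ p - ε by omega)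
    have h15 := mul_le_mul_of_nonneg_right h13 (show (0 : ℤ) ≤ p * (p - 1) by nlinarith)
    rcases hε with rfl | rfl <;> nlinarith
  rw [hn, h12, one_mul]

end Brauer

theorem tuan_aux.{v} [IsSimpleGroup G] (hG : ¬ IsMulCommutative G) {q b g : ℕ} (hq : q.Prime)
    (hpq : p ≠ q) (hg : Nat.card G = p * (q ^ b * g)) (hg1 : g < p - 1) (hg2 : ¬ q ∣ g) :
    3 < p ∧ ∃ m, ((p = 2 ^ m + 1 ∨ p + 1 = 2 ^ m) ∧ 2 * Nat.card G = (p + 1) * (p * (p - 1)) ∧
      ∀ (F : Type v) [Field F] [Fintype F], Fintype.card F = p →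
        Nonempty (G ≃* Matrix.ProjectiveSpecialLinearGroup (Fin 2) F)) ∨
      (p = 2 ^ m + 1 ∧ Nat.card G = p * ((p - 1) * (p - 2)) ∧
        ∀ (F : Type v) [Field F] [Fintype F], Fintype.card F = 2 ^ m →
          Nonempty (G ≃* Matrix.ProjectiveSpecialLinearGroup (Fin 2) F)) := by
  classical
  have hperf := perfect_of_simple hG
  have hg0 : 0 < g := Nat.pos_of_ne_zero fun h => hg2 (h ▸ dvd_zero q)
  obtain ⟨D⟩ := nonempty_setup (p := p) (G := G) (hg ▸ dvd_mul_right _ _) (by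
    rw [hg, sq, Nat.mul_dvd_mul_iff_left hp.out.pos, hp.out.dvd_mul]
    rintro (h | h)
    · exact hpq ((Nat.prime_dvd_prime_iff_eq hp.out hq).mp (hp.out.dvd_of_dvd_pow h))
    · have := Nat.le_of_dvd hg0 h
      omega)
  obtain ⟨B⟩ := D.nonempty_brauer
  have h1 : ∀ χ : IrrCharacter G, ¬ p ∣ deg χ → deg χ ∣ q ^ b * g := fun χ h =>
    ((Nat.Prime.coprime_iff_not_dvd hp.out).mpr h).symm.dvd_of_dvd_mul_left (hg ▸ deg_dvd χ)
  have h2 : ∀ χ : IrrCharacter G, ¬ p ∣ deg χ → ¬ q ∣ deg χ → deg χ ∣ g := fun χ h h' =>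
    (((Nat.Prime.coprime_iff_not_dvd hq).mpr h').symm.pow_right b).dvd_of_dvd_mul_left (h1 χ h)
  have h3 : ∀ χ ∈ B.S, χ ≠ irrOne G → q ∣ deg χ := fun χ hχ h => by
    by_contra h3
    have h4 := Nat.le_of_dvd hg0 (h2 χ (B.not_dvd_deg_S hχ) h3)
    have h5 := two_le_deg hperf h
    have h6 := Int.eq_zero_of_abs_lt_dvd (B.dvd_deg_sub hχ)
      (by rcases B.hδ χ hχ with h | h <;> rw [h, abs_lt] <;> omega)
    rcases B.hδ χ hχ with h | h <;> rw [h] at h6 <;> omega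
  have h4 := B.deg_eqn
  rw [← add_sum_erase _ _ B.one_mem, B.δ_one, deg_irrOne, add_right_comm] at h4
  have h5 : ∀ r : ℕ, (∀ χ ∈ B.S, χ ≠ irrOne G → r ∣ deg χ) → (r : ℤ) ∣ 1 + B.δ0 * B.f0 :=
    fun r h => by
      have : (r : ℤ) ∣ ∑ χ ∈ B.S.erase (irrOne G), B.δ χ * deg χ := dvd_sum fun χ hχ =>
        (Int.natCast_dvd_natCast.mpr (h χ (mem_of_mem_erase hχ) (ne_of_mem_erase hχ))).mul_left _
      simpa using (dvd_add_left this).mp (h4 ▸ dvd_zero _)
  have h6 := h5 q h3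
  have h7 : ¬ q ∣ B.f0 := fun h => hq.not_dvd_one (Int.natCast_dvd_natCast.mp ((dvd_add_left
    ((Int.natCast_dvd_natCast.mpr h).mul_left _)).mp h6))
  have h8 : B.f0 ∣ g := h2 (B.c 1) B.not_dvd_f0 h7
  have h9 := Nat.le_of_dvd hg0 h8
  have hf2 : 2 ≤ B.f0 := two_le_deg hperf (B.c_ne_one 1)
  have he := B.two_le_card_A hperf
  have het := D.card_A_mul_index
  have ht0 : 0 < D.A.index := Nat.pos_of_ne_zero index_ne_zero_of_finite
  have he1 : Nat.card D.A ≤ p - 1 := het ▸ Nat.le_mul_of_pos_right _ ht0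
  have h10 : (B.δ0 = 1 ∧ B.f0 + Nat.card D.A = p) ∨ (B.δ0 = -1 ∧ B.f0 = Nat.card D.A) := by
    have h10 := B.dvd_f0_add
    rcases B.hδ0 with h | h <;> rw [h] at h10
    · have := Int.eq_zero_of_abs_lt_dvd (dvd_sub h10 dvd_rfl) (by rw [abs_lt]; omega)
      exact Or.inl ⟨h, by omega⟩
    · have := Int.eq_zero_of_abs_lt_dvd h10 (by rw [abs_lt]; omega)
      exact Or.inr ⟨h, by omega⟩
  have hK : D.K = ⊥ := by
    by_contra hK
    have := B.stanton_c hperf (q := 1) fun h1 =>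
      hK (le_bot_iff.mp (ker_eq_bot (B.c_ne_one 1) ▸ h1))
    omega
  have h11 : 2 * Nat.card D.A + 1 ≤ p := by
    have : D.A.index ≠ 1 := fun h => by rw [h] at het; omega
    have := Nat.mul_le_mul_left (Nat.card D.A) (show 2 ≤ D.A.index by omega)
    omega
  have hfin : ∀ m, (p = 2 ^ m + 1 ∨ p + 1 = 2 ^ m) → Nat.card (Sylow p G) = p + 1 →
      2 * Nat.card D.A = p - 1 → (p = 2 ^ m + 1 ∨ p + 1 = 2 ^ m) ∧
      2 * Nat.card G = (p + 1) * (p * (p - 1)) ∧ ∀ (F : Type v) [Field F] [Fintype F],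
        Fintype.card F = p → Nonempty (G ≃* Matrix.ProjectiveSpecialLinearGroup (Fin 2) F) :=
    fun m h1 h2 h3 => ⟨h1, by rw [D.card_G, h2, hK, card_bot, ← h3]; ring,
      fun F _ _ hF => D.psl_of_card_sylow hperf hK h2 h3 hF⟩
  have h12 : 2 * B.f0 + 1 ≥ p → g = B.f0 := fun h => by
    obtain ⟨c, rfl⟩ := h8
    have : c < 2 := by
      by_contra h1
      have := Nat.mul_le_mul_left B.f0 (not_lt.mp h1)
      omega
    interval_cases c <;> omega
  refine ⟨by omega, ?_⟩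
  rcases h10 with ⟨h13, h14⟩ | ⟨h13, h14⟩
  · obtain rfl := h12 (by omega)
    obtain ⟨n, hn⟩ := Setup.exists_card_sylow (p := p) (G := G)
    have h15 : q ^ b * B.f0 = (n * p + 1) * Nat.card D.A := by
      have h1 := D.card_G
      rw [hn, hK, card_bot, mul_one, ← mul_assoc, hg, mul_comm] at h1
      exact Nat.eq_of_mul_eq_mul_right hp.out.pos h1
    obtain ⟨γ, -, h16⟩ := (Nat.dvd_prime_pow hq).mp (Nat.Coprime.dvd_of_dvd_mul_right (by
      rw [← Nat.coprime_add_self_right, h14]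
      exact ((Nat.Prime.coprime_iff_not_dvd hp.out).mpr D.not_dvd_card_A).symm)
      (h15 ▸ dvd_mul_left _ _ : Nat.card D.A ∣ q ^ b * B.f0))
    have h17 : ∀ r : ℕ, r ∣ Nat.card D.A → (r : ℤ) ∣ 1 + B.δ0 * B.f0 → r ∣ 2 := fun r h1 h2 => by
      obtain ⟨u, hu⟩ := h1
      obtain ⟨w, hw⟩ := h2
      rw [h13] at hw
      rw [hu] at het h14
      refine Int.natCast_dvd_natCast.mp ⟨w + u - u * D.A.index, ?_⟩
      have h3 : r * u * D.A.index + 1 = p := by omega
      zify at h3 h14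
      push_cast
      linear_combination hw - h14 + h3
    have h18 : γ ≠ 0 := by rintro rfl; rw [pow_zero] at h16; omega
    obtain rfl := (Nat.prime_dvd_prime_iff_eq hq Nat.prime_two).mp
      (h17 q (h16 ▸ dvd_pow_self q h18) h6)
    by_cases h19 : Nat.card D.A = 2
    · obtain ⟨χ, h20⟩ := card_eq_one.mp (show (B.S.erase (irrOne G)).card = 1 by
        rw [card_erase_of_mem B.one_mem, B.card_S, h19])
      have h21 := mem_erase.mp (h20 ▸ mem_singleton_self χ)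
      rw [h20, sum_singleton, h13] at h4
      have h22 : deg χ = B.f0 + 1 := by rcases B.hδ χ h21.2 with h | h <;> rw [h] at h4 <;> omega
      have h23 : deg χ ∣ 2 ^ b := Nat.Coprime.dvd_of_dvd_mul_right (by rw [h22]; simp)
        (h1 χ (B.not_dvd_deg_S h21.2))
      obtain ⟨m, -, hm⟩ := (Nat.dvd_prime_pow Nat.prime_two).mp h23
      have h24 := D.brauer_tuan (a := b) Nat.prime_two (by omega) (by rw [hK, card_bot]; omega)
        (hg ▸ (dvd_mul_right _ _).mul_left _) (1 : (ZMod p)ˣ)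
      rw [B.sum_filter_d, dvd_neg, ← add_sum_erase _ _ (mem_filter.mpr
        ⟨B.one_mem, irrOne_mem_prinBlk Nat.prime_two⟩), B.δ_one, deg_irrOne, ← filter_erase, h20,
        filter_singleton, if_neg (not_mem_prinBlk_of_dvd_pow hG Nat.prime_two h21.1 h23),
        sum_empty, h13] at h24
      have h25 : 2 ^ b ≤ p - 1 := by
        split_ifs at h24 <;> have := Int.le_of_dvd (by omega) h24 <;> omega
      have h26 := Nat.mul_le_mul_right B.f0 h25
      rw [h15, h19, show B.f0 = p - 2 by omega] at h26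
      obtain ⟨-, ⟨h27, h28⟩ | h27⟩ := (B.few_of_K hperf hK hn (by
        by_contra h
        have := Nat.mul_le_mul_left p (not_lt.mp h)
        have := Nat.mul_le_mul (Nat.sub_le p 1) (Nat.sub_le p 2)
        nlinarith)).main hperf hK
      · exact ⟨m, Or.inl (hfin m (by omega) h27 h28)⟩
      · obtain ⟨m, h27⟩ := h27
        exact ⟨m, Or.inr h27⟩
    · have h20 : 4 ∣ Nat.card D.A := by
        rw [h16] at h19 ⊢
        exact pow_dvd_pow 2 (show 2 ≤ γ by
          by_contra h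
          obtain rfl : γ = 1 := by omega
          exact h19 rfl)
      obtain ⟨χ, hχ, h21, h22⟩ : ∃ χ ∈ B.S, χ ≠ irrOne G ∧ ¬ 4 ∣ deg χ := by
        by_contra h
        push Not at h
        exact absurd (h17 4 h20 (h5 4 h)) (by norm_num)
      obtain ⟨u, hu⟩ := h3 χ hχ h21
      obtain ⟨w, hw⟩ : u ∣ B.f0 := (Nat.Coprime.pow_right b ((Nat.Prime.coprime_iff_not_dvd
        Nat.prime_two).mpr (by omega)).symm).dvd_of_dvd_mul_left
        ((Dvd.intro_left 2 hu.symm).trans (h1 χ (B.not_dvd_deg_S hχ)))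
      have h23 := B.dvd_deg_sub hχ
      have h24 := two_le_deg hperf h21
      have h25 : w = 1 := by
        by_contra h
        have h25 : 3 ≤ w := by
          rcases w with _ | _ | _ | w <;> omega
        have h26 := Nat.mul_le_mul_left u h25
        have := Int.eq_zero_of_abs_lt_dvd h23
          (by rcases B.hδ χ hχ with h | h <;> rw [h, abs_lt] <;> omega)
        rcases B.hδ χ hχ with h | h <;> rw [h] at this <;> omega
      rw [h25, mul_one] at hw
      have h26 : 2 * Nat.card D.A + 1 = p := by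
        rcases B.hδ χ hχ with h | h <;> rw [h] at h23
        · have := Int.eq_zero_of_abs_lt_dvd (dvd_sub h23 dvd_rfl) (by rw [abs_lt]; omega)
          omega
        · have := Int.eq_zero_of_abs_lt_dvd (dvd_add h23 dvd_rfl) (by rw [abs_lt]; omega)
          omega
      have h27 : p = 2 ^ (γ + 1) + 1 := by rw [pow_succ]; omega
      exact ⟨γ + 1, Or.inl (hfin _ (Or.inl h27) (B.half_case hG hK (m := γ + 1) (Or.inr rfl)
        (by omega) (by rw [h27]; push_cast; ring) (by omega) h7 h26 hg h3) (by omega))⟩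
  · obtain ⟨h15, h16⟩ := B.small_exceptional hperf hK h13 h14
    obtain rfl := h12 (h14 ▸ h15)
    have h19 : 2 * Nat.card D.A + 1 = p := le_antisymm h11 h15
    obtain ⟨χ, hχ, h17⟩ := h16 h19.symm
    clear h16
    have h20 : 2 * (B.f0 : ℤ) = p - 1 := by omega
    have h21 : 2 * Nat.card D.A = p - 1 := by omega
    have h22 : 3 < p := by omega
    have h18 : χ ≠ irrOne G := by rintro rfl; rw [deg_irrOne] at h17; omega
    obtain rfl : q = 2 := by
      obtain ⟨u, hu⟩ := h3 χ hχ h18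
      obtain ⟨w, hw⟩ := h6
      rw [h13] at hw
      refine (Nat.prime_dvd_prime_iff_eq hq Nat.prime_two).mp (hq.dvd_of_dvd_pow (n := 2)
        (Int.natCast_dvd_natCast.mp ⟨u + 2 * w, ?_⟩))
      have h3 : q * u = 2 * B.f0 + 2 := by omega
      zify at h3
      push_cast
      linear_combination 2 * hw - h3
    obtain ⟨m, -, hm⟩ := (Nat.dvd_prime_pow Nat.prime_two).mp (Nat.Coprime.dvd_of_dvd_mul_right
      (by
        rw [h17, show p + 1 = 2 + 2 * B.f0 by omega, Nat.coprime_add_mul_right_left]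
        exact (Nat.Prime.coprime_iff_not_dvd Nat.prime_two).mpr h7)
      (h1 χ (B.not_dvd_deg_S hχ)))
    have hm' : p + 1 = 2 ^ m := h17.symm.trans hm
    clear hm
    exact ⟨m, Or.inl (hfin _ (Or.inr hm') (B.half_case hG hK (m := m) (Or.inl rfl)
      h22 (by exact_mod_cast hm'.symm) h20 h7 h19 hg h3) h21)⟩

theorem tuan.{v} [IsSimpleGroup G] (hG : ¬ IsMulCommutative G) {q b g : ℕ} (hq : q.Prime)
    (hpq : p ≠ q) (hg : Nat.card G = p * q ^ b * g) (hg1 : g < p - 1) :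
    3 < p ∧ ∃ m, ((p = 2 ^ m + 1 ∨ p + 1 = 2 ^ m) ∧ 2 * Nat.card G = (p + 1) * (p * (p - 1)) ∧
      ∀ (F : Type v) [Field F] [Fintype F], Fintype.card F = p →
        Nonempty (G ≃* Matrix.ProjectiveSpecialLinearGroup (Fin 2) F)) ∨
      (p = 2 ^ m + 1 ∧ Nat.card G = p * ((p - 1) * (p - 2)) ∧
        ∀ (F : Type v) [Field F] [Fintype F], Fintype.card F = 2 ^ m →
          Nonempty (G ≃* Matrix.ProjectiveSpecialLinearGroup (Fin 2) F)) := by
  have h0 : g ≠ 0 := by rintro rfl; exact Nat.card_pos.ne' hg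
  obtain ⟨c, g', h1, rfl⟩ := Nat.exists_eq_pow_mul_and_not_dvd h0 q hq.ne_one
  exact tuan_aux hG (b := b + c) hq hpq (by rw [hg]; ring)
    ((Nat.le_mul_of_pos_left _ (pow_pos hq.pos _)).trans_lt hg1) h1

end Cfsg.Agent.H6
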